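import Cfsg.Agent.H716.IFO.Cases
import Cfsg.Agent.H447.IFO.SingBase

/-!
# S5719, `|A|` odd, linear groups, Singer case: field and graph-field involutions (helper447)
-/

set_option autoImplicit false
set_option linter.unusedSectionVars false

namespace Cfsg.Agent.H447.IFO
open Cfsg.Agent.H198.FC Cfsg.Agent.H716.FC Cfsg.Agent.H716.IFO Module

universe u v

variable {K : Type u} [Field K] {V : Type v} [AddCommGroup V] [Module K V]

theorem tau_pow [Finite K] {τ : K ≃+* K} (hτ : ∃ s, τ s ≠ s) (hττ : ∀ s, τ (τ s) = s) {q0 : ℕ}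
    (hq : Nat.card K = q0 ^ 2) (s : K) : τ s = s ^ q0 := by
  have h1 : (τ : K →+* K) ≠ RingHom.id K := by
    obtain ⟨s, hs⟩ := hτ
    intro h
    exact hs (RingHom.congr_fun h s)
  exact invol_eq_pow h1 hττ hq s

/-- the action of `f` on the field `E` -/
theorem f_pow [Finite K] [Module.Finite K V] [Nontrivial V] {E : Subalgebra K (R K V)} (hE : IsField E)
    (hd : finrank K E = finrank K V) {f : Equiv.Perm (R K V)} (hadd : ∀ X Y, f (X + Y) = f X + f Y)
    (hmul : ∀ X ∈ E, ∀ Y ∈ E, f (X * Y) = f X * f Y) (hfE : ∀ X ∈ E, f X ∈ E) (hff : ∀ X, f (f X) = X)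
    (hf1 : f 1 = 1) {τ : K ≃+* K} (hτ : ∃ s, τ s ≠ s) {q0 : ℕ} (hq : Nat.card K = q0 ^ 2)
    (hσ : ∀ (s : K) X, f (s • X) = τ s • f X) {k : R K V} (hk : k ∈ E) : f k = k ^ (q0 ^ finrank K V) := by
  have : Finite (R K V) := finite_R'
  have hfE' : Finite E := Finite.of_injective (fun X : E => (X : R K V)) Subtype.val_injective
  have hcard : Nat.card E = (q0 ^ finrank K V) ^ 2 := by
    rw [Module.natCard_eq_pow_finrank (K := K), hd, hq, ← pow_mul, ← pow_mul, mul_comm]
  have hf0 : f 0 = 0 := by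
    have := hadd 0 0
    rw [add_zero] at this
    exact left_eq_add.1 this
  let _ : Field E := hE.toField
  let σ : E →+* E :=
    { toFun := fun X => ⟨f X, hfE X X.2⟩
      map_one' := Subtype.ext hf1
      map_mul' := fun X Y => Subtype.ext (hmul X X.2 Y Y.2)
      map_zero' := Subtype.ext hf0
      map_add' := fun X Y => Subtype.ext (hadd X Y) }
  have hσv : ∀ X : E, ((σ X : E) : R K V) = f X := fun X => rfl
  have hne : σ ≠ RingHom.id E := by
    obtain ⟨s, hs⟩ := hτ
    intro h
    have h1 := congrArg Subtype.val (RingHom.congr_fun h (algebraMap K E s))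
    have h2 : f (algebraMap K (R K V) s) = algebraMap K (R K V) s := h1
    rw [Algebra.algebraMap_eq_smul_one, hσ, hf1] at h2
    rw [← Algebra.algebraMap_eq_smul_one, ← Algebra.algebraMap_eq_smul_one] at h2
    exact hs ((algebraMap K (R K V)).injective h2)
  have h3 := invol_eq_pow hne (fun X => Subtype.ext (hff X)) hcard ⟨k, hk⟩
  exact congrArg Subtype.val h3

section

variable {A S : Subgroup (Equiv.Perm (R K V))} [Finite K] [Module.Finite K V]

theorem card_eq (A : Subgroup (Equiv.Perm (R K V))) (f : Equiv.Perm (R K V)) :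
    Nat.card {a // a ∈ A ∧ f * a = a * f} = Nat.card (A ⊓ Subgroup.centralizer {f} : Subgroup (Equiv.Perm (R K V))) := by
  apply Nat.card_congr
  apply Equiv.subtypeEquivRight
  intro a
  rw [Subgroup.mem_inf, Subgroup.mem_centralizer_iff]
  simp

/-- field automorphisms -/
theorem sing_up_field (h : Fr (SLX K V) A S) {E : Subalgebra K (R K V)} (hE : IsField E)
    (hd : finrank K E = finrank K V) (hSE : ∀ f ∈ S, ∀ X ∈ E, f X ∈ E) {τ : K ≃+* K} (hτ : ∃ s, τ s ≠ s) {q0 : ℕ}
    (hq : Nat.card K = q0 ^ 2) {f : Equiv.Perm (R K V)} (hf : f ∈ S) (hff : f * f = 1)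
    (hσ : ∀ (s : K) X, f (s • X) = τ s • f X) (hauto : ∀ X Y, f (X * Y) = f X * f Y) :
    Nat.card {a // a ∈ A ∧ f * a = a * f} * (q0 - 1) ≤ finrank K V * (q0 ^ finrank K V - 1) := by
  have := h.nontriv
  have hff' : ∀ X, f (f X) = X := fun X => congrArg (fun g : Equiv.Perm (R K V) => g X) hff
  have hadd := (h.hS hf).1
  have hf1 : f 1 = 1 := by
    have h1 := hauto 1 (f 1)
    rw [one_mul, hff', mul_one] at h1
    exact h1.symm
  have hττ : ∀ s, τ (τ s) = s := by
    intro s
    have h1 := hff' (s • (1 : R K V))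
    rw [hσ, hσ, hff'] at h1
    rw [← Algebra.algebraMap_eq_smul_one, ← Algebra.algebraMap_eq_smul_one] at h1
    exact (algebraMap K (R K V)).injective h1
  have hτp := tau_pow hτ hττ hq
  have hq0 : 2 ≤ q0 := by
    have h1 : 1 < Nat.card K := Finite.one_lt_card
    by_contra h2
    have h3 : q0 ≤ 1 := by omega
    interval_cases q0 <;> omega
  have hQ1 : 1 < q0 ^ finrank K V := Nat.one_lt_pow (by have := h.hn; omega) (by omega)
  rw [card_eq]
  have hcnt := count (A := A ⊓ Subgroup.centralizer {f}) (N := (q0 ^ finrank K V - 1) * (q0 + 1)) hE hd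
    (by
      intro a ha
      obtain ⟨x, -, hx⟩ := h.AX ha.1
      exact ⟨x, hx⟩)
    (fun a ha X hX => hSE a (h.AS ha.1) X hX)
    (Nat.mul_pos (by omega) (by omega)) (by
      intro k hk hck
      have hcom : f * cj K V k = cj K V k * f := (Subgroup.mem_centralizer_iff.1 hck.2) f rfl
      have hk0 : (k : R K V) ≠ 0 := Units.ne_zero k
      have hkk : f ((k⁻¹ : (R K V)ˣ) : R K V) * f (k : R K V) = 1 := by rw [← hauto, Units.inv_mul, hf1]
      obtain ⟨s, hs⟩ := sc_of_comm_SL (K := K) (V := V) (Y := ((k⁻¹ : (R K V)ˣ) : R K V) * f (k : R K V)) (by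
        intro a _
        have h1 := congrArg (fun g : Equiv.Perm (R K V) => g (f a)) hcom
        have h2 : f (cj K V k (f a)) = cj K V k (f (f a)) := h1
        rw [cj_apply, cj_apply, hauto, hauto, hff'] at h2
        -- `f k * a * f k⁻¹ = k * a * k⁻¹`
        have h3 := congrArg (fun Z => Z * f (k : R K V)) h2
        simp only [mul_assoc] at h3
        rw [hkk, mul_one] at h3
        have h4 := congrArg (fun Z => ((k⁻¹ : (R K V)ˣ) : R K V) * Z) h3
        simp only [Units.inv_mul_cancel_left] at h4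
        rw [← h4, mul_assoc])
      have hfk : f (k : R K V) = s • (k : R K V) := by
        have h1 := congrArg (fun Z => (k : R K V) * Z) hs
        simp only [Units.mul_inv_cancel_left, mul_smul_comm, mul_one] at h1
        exact h1
      have hts : s * τ s = 1 := by
        have h1 := hff' (k : R K V)
        rw [hfk, hσ, hfk, smul_smul] at h1
        have h2 : (τ s * s - 1) • (k : R K V) = 0 := by rw [sub_smul, h1, one_smul, sub_self]
        rcases smul_eq_zero.1 h2 with h3 | h3
        · rw [mul_comm]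
          exact sub_eq_zero.1 h3
        · exact absurd h3 hk0
      have h5 := f_pow hE hd hadd (fun X _ Y _ => hauto X Y) (fun X hX => hSE f hf X hX) hff' hf1 hτ hq hσ hk
      rw [hfk] at h5
      have h6 : (k : R K V) ^ (q0 ^ finrank K V - 1) = s • (1 : R K V) := by
        have h7 : (k : R K V) ^ (q0 ^ finrank K V - 1) * k = (s • (1 : R K V)) * k := by
          rw [← pow_succ, Nat.sub_add_cancel hQ1.le, ← h5, smul_mul_assoc, one_mul]
        have h8 := congrArg (fun Z => Z * ((k⁻¹ : (R K V)ˣ) : R K V)) h7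
        simp only [Units.mul_inv_cancel_right] at h8
        exact h8
      rw [pow_mul, h6, smul_pow, one_pow, pow_succ, ← hτp, mul_comm, hts, one_smul])
  rw [hq] at hcnt
  have e1 : q0 ^ 2 - 1 = (q0 - 1) * (q0 + 1) := by
    obtain ⟨c, rfl⟩ : ∃ c, q0 = c + 1 := ⟨q0 - 1, by omega⟩
    rw [Nat.add_sub_cancel]
    have : (c + 1) ^ 2 = c * (c + 1 + 1) + 1 := by ring
    rw [this, Nat.add_sub_cancel]
  rw [e1, ← mul_assoc, ← mul_assoc] at hcnt
  exact Nat.le_of_mul_le_mul_right hcnt (by omega)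

/-- graph-field automorphisms -/
theorem sing_up_gf (h : Fr (SLX K V) A S) {E : Subalgebra K (R K V)} (hE : IsField E)
    (hd : finrank K E = finrank K V) (hSE : ∀ f ∈ S, ∀ X ∈ E, f X ∈ E) {τ : K ≃+* K} (hτ : ∃ s, τ s ≠ s) {q0 : ℕ}
    (hq : Nat.card K = q0 ^ 2) {f : Equiv.Perm (R K V)} (hf : f ∈ S) (hff : f * f = 1)
    (hσ : ∀ (s : K) X, f (s • X) = τ s • f X) (hanti : ∀ X Y, f (X * Y) = f Y * f X) :
    Nat.card {a // a ∈ A ∧ f * a = a * f} * (q0 + 1) ≤ finrank K V * (q0 ^ finrank K V + 1) := by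
  have := h.nontriv
  have hff' : ∀ X, f (f X) = X := fun X => congrArg (fun g : Equiv.Perm (R K V) => g X) hff
  have hadd := (h.hS hf).1
  have hf1 : f 1 = 1 := by
    have h1 := hanti 1 (f 1)
    rw [one_mul, hff', one_mul] at h1
    exact h1.symm
  have hττ : ∀ s, τ (τ s) = s := by
    intro s
    have h1 := hff' (s • (1 : R K V))
    rw [hσ, hσ, hff'] at h1
    rw [← Algebra.algebraMap_eq_smul_one, ← Algebra.algebraMap_eq_smul_one] at h1
    exact (algebraMap K (R K V)).injective h1
  have hτp := tau_pow hτ hττ hq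
  have hq0 : 2 ≤ q0 := by
    have h1 : 1 < Nat.card K := Finite.one_lt_card
    by_contra h2
    have h3 : q0 ≤ 1 := by omega
    interval_cases q0 <;> omega
  rw [card_eq]
  have hEc : ∀ X ∈ E, ∀ Y ∈ E, X * Y = Y * X := fun X hX Y hY =>
    congrArg Subtype.val (hE.mul_comm ⟨X, hX⟩ ⟨Y, hY⟩)
  have hcnt := count (A := A ⊓ Subgroup.centralizer {f}) (N := (q0 ^ finrank K V + 1) * (q0 - 1)) hE hd
    (by
      intro a ha
      obtain ⟨x, -, hx⟩ := h.AX ha.1
      exact ⟨x, hx⟩)
    (fun a ha X hX => hSE a (h.AS ha.1) X hX)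
    (Nat.mul_pos (by omega) (by omega)) (by
      intro k hk hck
      have hcom : f * cj K V k = cj K V k * f := (Subgroup.mem_centralizer_iff.1 hck.2) f rfl
      have hkk : f (k : R K V) * f ((k⁻¹ : (R K V)ˣ) : R K V) = 1 := by rw [← hanti, Units.inv_mul, hf1]
      have hkk' : f ((k⁻¹ : (R K V)ˣ) : R K V) * f (k : R K V) = 1 := by rw [← hanti, Units.mul_inv, hf1]
      obtain ⟨s, hs⟩ := sc_of_comm_SL (K := K) (V := V) (Y := f (k : R K V) * (k : R K V)) (by
        intro a _
        have h1 := congrArg (fun g : Equiv.Perm (R K V) => g (f a)) hcom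
        have h2 : f (cj K V k (f a)) = cj K V k (f (f a)) := h1
        rw [cj_apply, cj_apply, hanti, hanti, hff'] at h2
        -- `f k⁻¹ * (a * f k) = k * a * k⁻¹`
        have h3 := congrArg (fun Z => f (k : R K V) * Z * (k : R K V)) h2
        simp only [mul_assoc, Units.inv_mul, mul_one] at h3
        rw [← mul_assoc (f (k : R K V)) (f ((k⁻¹ : (R K V)ˣ) : R K V)), hkk, one_mul] at h3
        rw [h3, mul_assoc])
      have hs0 : s ≠ 0 := by
        rintro rfl
        rw [zero_smul] at hs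
        have h1 := congrArg (fun Z => f ((k⁻¹ : (R K V)ˣ) : R K V) * Z) hs
        simp only [mul_zero] at h1
        rw [← mul_assoc, hkk', one_mul] at h1
        exact Units.ne_zero k h1
      have hts : τ s = s := by
        have h1 : f (f (k : R K V) * (k : R K V)) = f (k : R K V) * (k : R K V) := by rw [hanti, hff']
        rw [hs, hσ, hf1, ← Algebra.algebraMap_eq_smul_one, ← Algebra.algebraMap_eq_smul_one] at h1
        exact (algebraMap K (R K V)).injective h1
      have h5 := f_pow hE hd hadd (fun X hX Y hY => by rw [hanti, hEc _ (hSE f hf Y hY) _ (hSE f hf X hX)])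
        (fun X hX => hSE f hf X hX) hff' hf1 hτ hq hσ hk
      rw [h5, ← pow_succ] at hs
      have h9 : s ^ (q0 - 1) = 1 := by
        have h10 : s ^ (q0 - 1) * s = 1 * s := by
          rw [← pow_succ, Nat.sub_add_cancel (by omega : 1 ≤ q0), ← hτp, hts, one_mul]
        exact mul_right_cancel₀ hs0 h10
      rw [pow_mul, hs, smul_pow, one_pow, h9, one_smul])
  rw [hq] at hcnt
  have e1 : q0 ^ 2 - 1 = (q0 + 1) * (q0 - 1) := by
    obtain ⟨c, rfl⟩ : ∃ c, q0 = c + 1 := ⟨q0 - 1, by omega⟩
    rw [Nat.add_sub_cancel]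
    have : (c + 1) ^ 2 = (c + 1 + 1) * c + 1 := by ring
    rw [this, Nat.add_sub_cancel]
  rw [e1, ← mul_assoc, ← mul_assoc] at hcnt
  exact Nat.le_of_mul_le_mul_right hcnt (by omega)

end

end Cfsg.Agent.H447.IFO
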