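import Cfsg.Agent.H574.IFO.Kills
import Cfsg.Agent.H447.IFO.SingBase

/-!
# S5719, `|A|` odd, unitary groups, Singer case: `|C_A(σ)| ≤ n` (helper447)

`E` a field of degree `n` over `F` in `End V`, stable under the adjoint and normalised by `Γ`; `σ ∈ Γ` of order `2` acting
non-trivially on the scalars.
-/

set_option autoImplicit false
set_option linter.unusedSectionVars false

namespace Cfsg.Agent.H447.IFO

open Matrix Subgroup Cfsg.Agent.H198.FC Cfsg.Agent.LieClassical.HermBasic Cfsg.Agent.LieClassical.HermSiegel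
  Cfsg.Agent.ClassicalGeometry.PSUAutCount Cfsg.Agent.Schreier.PSU Cfsg.Agent.H602.FC Cfsg.Agent.H209.Fxy
open Cfsg.Agent.ClassicalGeometry.UnitAutBasic (pr pr_surjective)
open Cfsg.Agent.H574.IFO

section adj

variable {K : Type*} [Field K] {V : Type*} [AddCommGroup V] [Module K V] {b : Cl K V}

theorem adj_unique (hU : b.IsU) {X Y Y' : R K V} (h : b.Adj X Y) (h' : b.Adj X Y') : Y = Y' := by
  refine LinearMap.ext fun w => ?_
  rw [← sub_eq_zero]
  apply b.nondeg
  intro v
  rw [hU.2 v]
  have h1 : b.B v (Y w - Y' w) = 0 := by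
    have h2 : b.B v (Y w) = b.B v (Y' w) := by rw [← h v w, ← h' v w]
    have h3 := b.add_right v (Y w - Y' w) (Y' w)
    rw [sub_add_cancel, h2] at h3
    linear_combination -h3
  rw [h1, map_zero]

/-- the adjoint on the field `E` of order `Q²` -/
theorem adj_pow [Finite K] [Module.Finite K V] [Nontrivial V] (hU : b.IsU) {E : Subalgebra K (R K V)} (hE : IsField E)
    (hadj : ∀ X ∈ E, ∃ Y ∈ E, b.Adj X Y) {Q : ℕ} (hQ : Nat.card E = Q ^ 2) {X : R K V} (hX : X ∈ E) :
    b.Adj X (X ^ Q) := by
  have : Finite (R K V) := finite_R'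
  have hfE : Finite E := Finite.of_injective (fun X : E => (X : R K V)) Subtype.val_injective
  have h1 : ∀ X : E, ∃ Y : E, b.Adj (X : R K V) (Y : R K V) := fun X => by
    obtain ⟨Y, hY, h⟩ := hadj X X.2
    exact ⟨⟨Y, hY⟩, h⟩
  choose J hJ using h1
  let _ : Field E := hE.toField
  have hu : ∀ {X Y : E}, b.Adj (X : R K V) (Y : R K V) → J X = Y := fun {X Y} h =>
    Subtype.ext (adj_unique hU (hJ _) h)
  let σ : E →+* E :=
    { toFun := J
      map_one' := hu (fun v w => rfl)
      map_mul' := fun X Y => hu (fun v w => by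
        rw [mul_comm (J X) (J Y)]
        change b.B ((X : R K V) ((Y : R K V) v)) w = b.B v ((J Y : R K V) ((J X : R K V) w))
        rw [hJ X, hJ Y])
      map_zero' := hu (fun v w => by
        change b.B (0 : V) w = b.B v (0 : V)
        have e1 := b.smul_left 0 (0 : V) w
        have e2 := b.smul_right 0 v (0 : V)
        rw [smul_zero, zero_mul] at e1
        rw [smul_zero, map_zero, zero_mul] at e2
        rw [e1, e2])
      map_add' := fun X Y => hu (fun v w => by
        change b.B ((X : R K V) v + (Y : R K V) v) w = b.B v ((J X : R K V) w + (J Y : R K V) w)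
        rw [b.add_left, b.add_right, hJ X, hJ Y]) }
  have hσ2 : ∀ X : E, σ (σ X) = X := fun X => hu (fun v w => by
    change b.B ((J X : R K V) v) w = b.B v ((X : R K V) w)
    rw [hU.2 w, ← hJ X, ← hU.2 ((X : R K V) w)])
  have hne : σ ≠ RingHom.id E := by
    obtain ⟨a, ha⟩ := hU.1
    intro h
    have h2 : J (algebraMap K E a) = algebraMap K E a := RingHom.congr_fun h (algebraMap K E a)
    have h3 : J (algebraMap K E a) = algebraMap K E (b.τ a) := hu (fun v w => by
      change b.B (a • v) w = b.B v (b.τ a • w)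
      rw [b.smul_left, b.smul_right, b.invol])
    exact ha ((algebraMap K E).injective (h3.symm.trans h2))
  have h4 := invol_eq_pow hne hσ2 hQ ⟨X, hX⟩
  have h5 : ((J ⟨X, hX⟩ : E) : R K V) = X ^ Q := congrArg Subtype.val h4
  rw [← h5]
  exact hJ ⟨X, hX⟩

end adj

variable {n : ℕ} {F : Type} [Field F] {q : ℕ} [Fintype F] (hF : Fintype.card F = q ^ 2)
  {A : Subgroup (Cfsg.PSU n F q)} {Γ : Subgroup (MulAut (Cfsg.PSU n F q))}

theorem eq_one_of_cs [IsSimpleGroup (Cfsg.PSU n F q)] (h : IF A Γ) {s : Cfsg.SU n F q} (hs : cs s = 1) :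
    pr n F q s = 1 := by
  apply center_bot h
  intro y
  have h1 := pair_mem s
  rw [hs] at h1
  have h2 : MulAut.conj (pr n F q s) = 1 := eq_of_fst h1 (one_mem _)
  have h3 : pr n F q s * y * (pr n F q s)⁻¹ = y := by
    rw [← MulAut.conj_apply, h2, MulAut.one_apply]
  exact mul_inv_eq_iff_eq_mul.1 h3

include hF in
/-- **Singer case: the centraliser of an involution.** -/
theorem sing_up [IsSimpleGroup (Cfsg.PSU n F q)] (hn : 3 ≤ n) (_h32 : ¬ (n = 3 ∧ q = 2)) (h : IF A Γ)
    (hodd : Odd (Nat.card A)) (E : Subalgebra F (R F (V n F))) (hE : IsField E) (hd : Module.finrank F E = n)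
    (_hp : n.Prime) (hadj : ∀ X ∈ E, ∃ Y ∈ E, (hb n hF).Adj X Y) (hSE : ∀ f ∈ SS Γ, ∀ X ∈ E, f X ∈ E)
    {f : Equiv.Perm (R F (V n F))} {σ : MulAut (Cfsg.PSU n F q)} (hf : ((f, σ) : GGU n F q) ∈ HU n F q) (hσ : σ ∈ Γ)
    (ho : orderOf σ = 2) (hnt : ∃ c : F, f (c • 1) ≠ c • 1) : Nat.card {a // a ∈ A ∧ σ a = a} ≤ n := by
  have hU := hb_isU (n := n) hF
  have hne : Nonempty (Fin n) := ⟨⟨0, by omega⟩⟩
  have hfr : Module.finrank F (V n F) = n := by simp [V]
  have hntV : Nontrivial (V n F) := Module.nontrivial_of_finrank_pos (R := F) (by rw [hfr]; omega)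
  have hfinR : Finite (R F (V n F)) := finite_R'
  have hfE : Finite E := Finite.of_injective (fun X : E => (X : R F (V n F))) Subtype.val_injective
  have hcF : Nat.card F = q ^ 2 := by rw [Nat.card_eq_fintype_card, hF]
  have hcard : Nat.card E = (q ^ n) ^ 2 := by
    rw [Module.natCard_eq_pow_finrank (K := F), hd, hcF, ← pow_mul, ← pow_mul, mul_comm]
  have hd' : Module.finrank F E = Module.finrank F (V n F) := by rw [hd, hfr]
  have hEc : ∀ X ∈ E, ∀ Y ∈ E, X * Y = Y * X := fun X hX Y hY =>
    congrArg Subtype.val (hE.mul_comm ⟨X, hX⟩ ⟨Y, hY⟩)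
  -- the automorphism `f`
  have hfS : f ∈ SS Γ := mem_SS.2 ⟨σ, hσ, hf⟩
  have hfRB := SS_le hF hfS
  have hadd := hfRB.1.1
  have hmul := hfRB.1.2
  have hff : f * f = 1 := by
    have h1 : ((f * f, 1) : GGU n F q) ∈ HU n F q := by
      have h2 := mul_mem hf hf
      have h3 : ((f, σ) : GGU n F q) * (f, σ) = (f * f, 1) := by
        refine Prod.ext rfl ?_
        change σ * σ = 1
        rw [← sq, ← ho, pow_orderOf_eq_one]
      rwa [h3] at h2
    exact eq_of_snd hF hn h1 (one_mem _)
  have hff' : ∀ X, f (f X) = X := fun X => congrArg (fun g : Equiv.Perm (R F (V n F)) => g X) hff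
  have hf1 : f 1 = 1 := by
    have h1 := hmul 1 (f 1)
    rw [one_mul, hff', mul_one] at h1
    exact h1.symm
  have hf0 : f 0 = 0 := by
    have := hadd 0 0
    rw [add_zero] at this
    exact left_eq_add.1 this
  have hfpow : ∀ X ∈ E, f X = X ^ (q ^ n) := by
    intro X hX
    let _ : Field E := hE.toField
    let φ : E →+* E :=
      { toFun := fun X => ⟨f X, hSE f hfS X X.2⟩
        map_one' := Subtype.ext hf1
        map_mul' := fun X Y => Subtype.ext (hmul X Y)
        map_zero' := Subtype.ext hf0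
        map_add' := fun X Y => Subtype.ext (hadd X Y) }
    have hφ : φ ≠ RingHom.id E := by
      obtain ⟨c, hc⟩ := hnt
      intro h2
      apply hc
      have h3 := congrArg Subtype.val (RingHom.congr_fun h2 (algebraMap F E c))
      have h4 : f (algebraMap F (R F (V n F)) c) = algebraMap F (R F (V n F)) c := h3
      rwa [Algebra.algebraMap_eq_smul_one] at h4
    exact congrArg Subtype.val (invol_eq_pow hφ (fun X => Subtype.ext (hff' X)) hcard ⟨X, hX⟩)
  -- the group of the fixed points
  let C : Subgroup (Cfsg.PSU n F q) := A ⊓ (MonoidHom.eqLocus σ.toMonoidHom (MonoidHom.id _))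
  have hC : ∀ a, a ∈ C ↔ a ∈ A ∧ σ a = a := fun a => Iff.rfl
  let A0 : Subgroup (Equiv.Perm (R F (V n F))) := (C.comap (pr n F q)).map ((H198.FC.cj F (V n F)).comp us)
  have hA0 : ∀ a, a ∈ A0 ↔ ∃ s : Cfsg.SU n F q, (pr n F q s ∈ A ∧ σ (pr n F q s) = pr n F q s) ∧ cs s = a :=
    fun a => Iff.rfl
  have hfinP : Finite (Equiv.Perm (R F (V n F))) := inferInstance
  have hle : Nat.card {a // a ∈ A ∧ σ a = a} ≤ Nat.card A0 := by
    have hch : ∀ a : {a // a ∈ A ∧ σ a = a}, ∃ s : Cfsg.SU n F q, pr n F q s = a := fun a => pr_surjective _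
    choose s hs using hch
    refine Nat.card_le_card_of_injective (fun a => ⟨cs (s a), (hA0 _).2 ⟨s a, by rw [hs]; exact a.2, rfl⟩⟩) ?_
    intro a a' haa
    have h1 : cs (s a) = cs (s a') := congrArg Subtype.val haa
    have h2 : cs ((s a)⁻¹ * s a') = 1 := by rw [cs_mul, cs_inv, h1, inv_mul_cancel]
    have h3 := eq_one_of_cs h h2
    rw [map_mul, map_inv, inv_mul_eq_one, hs, hs] at h3
    exact Subtype.ext h3
  refine le_trans hle ?_
  have hq2 : 0 < q ^ 2 - 1 := by
    have h1 : 1 < Nat.card F := Finite.one_lt_card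
    rw [hcF] at h1
    omega
  have hcnt := count (A := A0) (N := q ^ 2 - 1) hE hd' (by
      intro a ha
      obtain ⟨s, -, rfl⟩ := (hA0 a).1 ha
      exact ⟨us s, rfl⟩) (by
      intro a ha X hX
      obtain ⟨s, hs, rfl⟩ := (hA0 a).1 ha
      exact hSE _ ((cs_mem_SS h).2 hs.1) X hX) hq2 (by
      intro k hk hck
      obtain ⟨s, ⟨hsA, hsσ⟩, hsk⟩ := (hA0 _).1 hck
      -- `us s ∈ E`
      have hu : ((us s : (R F (V n F))ˣ) : R F (V n F)) ∈ E := by
        apply mem_of_comm hE hd'
        intro X hX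
        rw [← cs_fix_iff, hsk, cj_apply, hEc _ hk X hX, mul_assoc, Units.mul_inv, mul_one]
      have hiso : (hb n hF).Isom (us s : (R F (V n F))ˣ) := fun v w => herm_act s v w
      have hap := adj_pow hU hE hadj hcard hu
      have hone : ((us s : (R F (V n F))ˣ) : R F (V n F)) ^ (q ^ n) * (us s : (R F (V n F))ˣ) = 1 := by
        apply adj_unique hU (b := hb n hF) (X := 1) _ (fun v w => rfl)
        intro v w
        rw [Module.End.mul_apply, ← hap, Module.End.one_apply, hiso]
      rw [← hfpow _ hu] at hone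
      have hfu : f (us s : (R F (V n F))ˣ) = (((us s)⁻¹ : (R F (V n F))ˣ) : R F (V n F)) := by
        rw [← mul_one (f _), ← Units.mul_inv (us s), ← mul_assoc, hone, one_mul]
      have hfu' : f (((us s)⁻¹ : (R F (V n F))ˣ) : R F (V n F)) = (us s : (R F (V n F))ˣ) := by
        rw [← hfu, hff']
      have hcc := conj_cs hF hn hf (s := s) (t := s) hsσ.symm
      have hinv : ∀ X, (((us s)⁻¹ : (R F (V n F))ˣ) : R F (V n F)) * X * (us s : (R F (V n F))ˣ) = cs s X := by
        intro X
        have h1 : f (cs s (f⁻¹ X)) = cs s X := congrArg (fun g : Equiv.Perm (R F (V n F)) => g X) hcc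
        rw [cs_apply, hmul, hmul, pai, hfu, hfu'] at h1
        exact h1
      have hcs2 : cs (s * s) = 1 := by
        rw [cs_mul]
        refine Equiv.ext fun X => ?_
        rw [Equiv.Perm.mul_apply, ← hinv X, cs_apply, Equiv.Perm.one_apply]
        simp only [mul_assoc, Units.mul_inv_cancel_left, Units.mul_inv, mul_one]
      have hpr2 := eq_one_of_cs h hcs2
      have hpr : pr n F q s = 1 := by
        by_contra h1
        apply odd_of_mem hodd hsA
        have h2 : orderOf (pr n F q s) = 2 := by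
          apply orderOf_eq_prime
          · rw [sq, ← map_mul, hpr2]
          · exact h1
        rw [h2]
        exact even_two
      have hcs1 := cs_eq_one hF hn hpr
      rw [hsk] at hcs1
      have hcomm : ∀ X, (k : R F (V n F)) * X = X * k := by
        intro X
        have h1 : cj F (V n F) k X = X := by rw [hcs1]; rfl
        rw [cj_apply] at h1
        exact (Units.mul_inv_eq_iff_eq_mul _).1 h1
      have hcen : (k : R F (V n F)) ∈ Subalgebra.center F (R F (V n F)) :=
        Subalgebra.mem_center_iff.2 fun Y => (hcomm Y).symm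
      rw [Algebra.IsCentral.center_eq_bot, Algebra.mem_bot] at hcen
      obtain ⟨c, hc⟩ := hcen
      have hc0 : c ≠ 0 := by
        rintro rfl
        rw [map_zero] at hc
        exact k.ne_zero hc.symm
      rw [← hc, ← map_pow, ← hF, FiniteField.pow_card_sub_one_eq_one c hc0, map_one])
  rw [hcF, hfr] at hcnt
  exact Nat.le_of_mul_le_mul_right hcnt hq2

end Cfsg.Agent.H447.IFO
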